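import Cfsg.Agent.Lib.Id.Cent3
import Cfsg.Agent.Lib.Grp.A6.Main
import Cfsg.Agent.Lib.Grp.A7.Main

/-! The table groups `A6`, `A7` are the alternating groups. -/

set_option autoImplicit false

namespace Cfsg.Agent.Id

theorem A6_eq : CG.A6.PG = alternatingGroup (Fin 6) := eq_alternatingGroup (by rw [CG.A6.card]; rfl)

theorem A7_eq : CG.A7.PG = alternatingGroup (Fin 7) := eq_alternatingGroup (by rw [CG.A7.card]; rfl)

/-- The identification of `A6`. -/
noncomputable def isoA6 : alternatingGroup (Fin 6) ≃* CG.A6.PG := MulEquiv.subgroupCongr A6_eq.symm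

/-- The identification of `A7`. -/
noncomputable def isoA7 : alternatingGroup (Fin 7) ≃* CG.A7.PG := MulEquiv.subgroupCongr A7_eq.symm

end Cfsg.Agent.Id
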