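import Cfsg.Agent.Lib.Id.Lin2
import Cfsg.Agent.Lib.Grp.S62.Main

/-! Identification of `Sp(6,2)` with its table permutation group on the nonzero vectors. -/

set_option autoImplicit false
set_option maxRecDepth 100000

namespace Cfsg.Agent.Id.S62

open Cfsg.Agent.CG Matrix

/-- The numbering of the coordinates. -/
def ix : Fin 3 ⊕ Fin 3 → ℕ := Sum.elim Fin.val fun i => 3 + i

theorem hs : ∀ v, ∃ k < 64, vec2 ix k = v := by decide +kernel

theorem step {L : List (Fin 3 ⊕ Fin 3 → ZMod 2)} (b : Fin 3 ⊕ Fin 3 → ZMod 2) {m N : ℕ}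
    (h : b ≠ 0 ∧ ((Finset.range 64).filter fun k =>
      vec2 ix k ≠ 0 ∧ ∀ u ∈ L, spB u (vec2 ix k) = spB u b).card ≤ m)
    (hN : Nat.card (fixL (symplecticGroup (Fin 3) (ZMod 2)) (b :: L)) ≤ N) :
    Nat.card (fixL (symplecticGroup (Fin 3) (ZMod 2)) L) ≤ m * N :=
  card_fixL_le b (ncard_vec2_le hs _ h.2) (sp_smul_mem h.1) hN

theorem last : Nat.card (fixL (symplecticGroup (Fin 3) (ZMod 2)) [vec2 ix 32, vec2 ix 4, vec2 ix 16,
    vec2 ix 2, vec2 ix 8, vec2 ix 1]) ≤ 1 :=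
  card_fixL_le_one fun _ hg => Subtype.ext (eq_one_of_fix (by decide +kernel) hg)

theorem card_le : Nat.card (symplecticGroup (Fin 3) (ZMod 2)) ≤ 1451520 :=
  card_le_fixL (step (vec2 ix 1) (m := 63) (by decide +kernel) (step (vec2 ix 8) (m := 32)
    (by decide +kernel) (step (vec2 ix 2) (m := 15) (by decide +kernel) (step (vec2 ix 16) (m := 8)
    (by decide +kernel) (step (vec2 ix 4) (m := 3) (by decide +kernel) (step (vec2 ix 32) (m := 2)
    (by decide +kernel) last))))))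

theorem memA : mat2 ix 6 0x1b6212c81 ∈ symplecticGroup (Fin 3) (ZMod 2) :=
  SymplecticGroup.mem_iff.2 (by decide +kernel)

theorem memB : mat2 ix 6 0x501475fe2 ∈ symplecticGroup (Fin 3) (ZMod 2) :=
  SymplecticGroup.mem_iff.2 (by decide +kernel)

theorem exists_iso : ∃ e : symplecticGroup (Fin 3) (ZMod 2) ≃* CG.S62.PG,
    ∀ x (j : Fin 63), x • vec2 ix (j + 1) = vec2 ix ((e x).1 j + 1) :=
  exists_equiv_of_realized (pt := fun j : Fin 63 => vec2 ix (j + 1)) (by decide +kernel)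
    (tabGroup_le CG.S62.tabOK CG.S62.hinv [0, 1] (List.forall_mem_cons.2
      ⟨⟨⟨_, memA⟩, fun j => by
        change mat2 ix 6 _ *ᵥ vec2 ix _ = vec2 ix _
        rw [permOf_val CG.S62.tabOK]
        revert j; decide +kernel⟩, List.forall_mem_cons.2
      ⟨⟨⟨_, memB⟩, fun j => by
        change mat2 ix 6 _ *ᵥ vec2 ix _ = vec2 ix _
        rw [permOf_val CG.S62.tabOK]
        revert j; decide +kernel⟩, by simp⟩⟩) (by decide +kernel))
    (card_le.trans CG.S62.card.ge)

theorem iso : Nonempty (symplecticGroup (Fin 3) (ZMod 2) ≃* CG.S62.PG) := exists_iso.nonempty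

end Cfsg.Agent.Id.S62
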